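import Cfsg.Agent.Lib.FusionModels.GenExtraspecial
import Cfsg.Agent.Lib.FusionModels.TransvectionPair
import Cfsg.Agent.Lib.FusionModels.NormalTests
import Cfsg.Agent.Lib.FusionModels.SmallOmega
import Cfsg.Agent.Lib.Alperin.Theorem
import Cfsg.Prelude.Def_Transfer

/-!
A strongly closed generalized extraspecial subgroup is normal, unless it splits as `E × A` with `E`
dihedral of order `8` or extraspecial of order `p³` and exponent `p`.
-/

set_option autoImplicit false
set_option linter.style.haveILetI false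

open scoped commutatorElement

namespace CfsgLib.FusionModels

open Cfsg Cfsg.FusionSystem CfsgLib.Alperin CfsgLib.FusionSub

variable {Ω : Type*} [Group Ω] {S : Subgroup Ω} [Finite S] {p : ℕ} [Fact p.Prime]

omit [Fact p.Prime] in
theorem isFullyNormalized_of_stronglyClosed {F : FusionSystem S} {C : Subgroup Ω}
    (h : F.StronglyClosed C) : F.IsFullyNormalized C := by
  refine ⟨h.1, fun R _ => ?_⟩
  rw [show normalizerIn S C = S from
    le_antisymm (normalizerIn_le S C) (le_inf le_rfl (stronglyClosed_le_normalizer h))]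
  exact Subgroup.card_le_of_le (normalizerIn_le S R)

omit [Fact p.Prime] [Finite S] in
theorem mem_autInducedBy_self_iff {C : Subgroup Ω} {α : MulAut C} :
    α ∈ autInducedBy S C ↔ ∃ g ∈ S, ∀ x : C, ((α x : C) : Ω) = g * x * g⁻¹ :=
  mem_autInducedBy_iff

/-- The transvection configuration: the contradiction in the case that no element outside the
elementary abelian subgroup has order `p`. -/
theorem false_of_omega_centralizer (hS : IsPGroup p S) {F : FusionSystem S} (hF : F.IsSaturated p)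
    (hp : p ≠ 2) {P : Subgroup Ω} (hP : F.StronglyClosed P) (hG : IsGenExtraspecial p ↥P)
    {C₀ : Subgroup ↥P} {w y : ↥P} (hC₀ : C₀ = Subgroup.centralizer ({w} : Set ↥P))
    (hab : ∀ a ∈ C₀, ∀ b ∈ C₀, a * b = b * a) (hexp : ∀ a ∈ C₀, a ^ p = 1)
    (hy : y ∉ C₀) (homega : ∀ x : ↥P, x ^ p = 1 → x ∈ C₀)
    (hwZ : w ∉ commutator ↥P)
    {α : MulAut ↥(C₀.map P.subtype)} (hα : α ∈ F.autGroup (C₀.map P.subtype))
    (hαw : ∀ h : (w : Ω) ∈ C₀.map P.subtype,
      ((α ⟨w, h⟩ : ↥(C₀.map P.subtype)) : Ω) ∈ (commutator ↥P).map P.subtype) : False := by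
  have hp' := (Fact.out : p.Prime)
  revert α hα hαw
  set C := C₀.map P.subtype with hCd
  intro α hα hαw
  have hCP : C ≤ P := Subgroup.map_subtype_le _
  have hCS : C ≤ S := hCP.trans hP.1
  haveI := finite_of_le hCS
  haveI := finite_of_le hP.1
  haveI : Finite (MulAut C) := finite_mulAut
  haveI := finite_autGroup F hCS
  have hmemC : ∀ v : ↥P, (v : Ω) ∈ C ↔ v ∈ C₀ := fun v =>
    ⟨fun ⟨v', hv', e⟩ => (Subtype.ext e : v' = v) ▸ hv', fun h => ⟨v, h, rfl⟩⟩
  have hZ₀C : commutator ↥P ≤ C₀ := fun c hc => homega c (hG.pow_commutator hc)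
  set Z := (commutator ↥P).map P.subtype with hZd
  have hZC : ∀ c ∈ Z, c ∈ C := by
    rintro _ ⟨v, hv, rfl⟩
    exact (hmemC v).mpr (hZ₀C hv)
  have hsc : F.StronglyClosed C := by
    refine ⟨hCS, fun R hR φ hφ x => ?_⟩
    obtain ⟨v, hv, hvx⟩ := hR x.2
    have h1 : φ x ∈ P := stronglyClosed_apply hP hφ x (hCP (hR x.2))
    refine (hmemC ⟨φ x, h1⟩).mpr (homega _ (Subtype.ext ?_))
    rw [Subgroup.coe_pow, Subgroup.coe_one]
    show φ x ^ p = 1
    rw [← map_pow, show x ^ p = 1 from Subtype.ext (by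
      rw [Subgroup.coe_pow, Subgroup.coe_one, ← hvx, ← map_pow, hexp v hv, map_one]), map_one]
  have hCn := isFullyNormalized_of_stronglyClosed hsc
  have hCcomm : ∀ a b : C, a * b = b * a := by
    rintro ⟨_, a, ha, rfl⟩ ⟨_, b, hb, rfl⟩
    exact Subtype.ext (congrArg Subtype.val (hab a ha b hb) :)
  have hCexp : ∀ a : C, a ^ p = 1 := by
    rintro ⟨_, a, ha, rfl⟩
    exact Subtype.ext (congrArg Subtype.val (hexp a ha) :)
  have hCpg : IsPGroup p C := isPGroup_of_le hS hCS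
  -- conjugation by elements of `P` on `C`
  have hPN : ∀ g ∈ P, g ∈ Subgroup.normalizer (C : Set Ω) := fun g hg =>
    stronglyClosed_le_normalizer hsc (hP.1 hg)
  have hgen : ∀ g : Ω, g ∈ P → ∀ v : ↥P, v ∉ C₀ → ∃ k : ℤ, g * ((v : Ω) ^ k)⁻¹ ∈ C := by
    intro g hg v hv
    obtain ⟨k, hk⟩ := hG.exists_decomp (hC₀ ▸ hv) ⟨g, hg⟩
    exact ⟨k, ⟨_, hC₀ ▸ hk, by simp⟩⟩
  -- an automorphism moving `τ` into `Aut_S(C)` fixes `Z`
  set τ₀ := conjAut C (y : Ω) (hPN _ y.2) with hτ₀
  have hτ₀F : τ₀ ∈ F.autGroup C := autInducedBy_le_autGroup F hCS (conjAut_mem (hP.1 y.2) _)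
  have hstep : ∀ β ∈ F.autGroup C, β * τ₀ * β⁻¹ ∈ autInducedBy S C →
      ∀ c : C, (c : Ω) ∈ Z → ((β c : C) : Ω) ∈ Z := by
    intro β hβ hind
    obtain ⟨h, hhS, hh⟩ := mem_autInducedBy_self_iff.mp hind
    have hmem := (mem_autGroup_iff F hCS).mp hβ
    obtain ⟨ψ, hψ, hψx⟩ := (receptive_of_fullyNormalized hS hF hCn).2 C _ hmem
      (range_subtype_comp_aut β)
    have hle : P ≤ extender S C (C.subtype.comp β.toMonoidHom) := by
      intro g hg
      obtain ⟨k, hk⟩ := hgen g hg y hy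
      have hyE : (y : Ω) ∈ extender S C (C.subtype.comp β.toMonoidHom) := by
        refine mem_extender_iff.mpr ⟨hP.1 y.2, hPN _ y.2, h, hhS, fun x hx => ?_⟩
        have h1 := hh (β x)
        simp only [MulAut.mul_apply, MulAut.inv_apply_self] at h1
        exact h1
      have := Subgroup.mul_mem _ (le_extender hmem hk) (Subgroup.zpow_mem _ hyE k)
      rwa [inv_mul_cancel_right] at this
    obtain ⟨γ, -, hγ⟩ := exists_aut_of_hom' F (restrict_mem hψ hle) fun v =>
      stronglyClosed_apply hP (restrict_mem hψ hle) v v.2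
    rintro c ⟨v, hv, hvc⟩
    refine ⟨γ v, ((Subgroup.characteristic_iff_map_eq.mp
      (inferInstance : (commutator ↥P).Characteristic)) γ).le ⟨v, hv, rfl⟩, ?_⟩
    show ((γ v : P) : Ω) = _
    rw [hγ]
    have hvc' : (v : Ω) = c := hvc
    exact (congrArg ψ (Subtype.ext hvc')).trans (hψx c c.2 (hle (hCP c.2)))
  -- the elements `w`, `z = ⁅y, w⁆`
  have hwC₀ : w ∈ C₀ := hC₀ ▸ Subgroup.mem_centralizer_singleton_iff.mpr rfl
  have hyw : ⁅y, w⁆ ≠ 1 := fun e => hy (hC₀ ▸ Subgroup.mem_centralizer_singleton_iff.mpr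
    (commutatorElement_eq_one_iff_mul_comm.mp e))
  set wC : C := ⟨w, (hmemC w).mpr hwC₀⟩ with hwCd
  have hzmem : ⁅y, w⁆ ∈ C₀ := hZ₀C (commutatorElement_mem_commutator y w)
  set zC : C := ⟨(⁅y, w⁆ : ↥P), (hmemC _).mpr hzmem⟩ with hzCd
  have hzC1 : zC ≠ 1 := fun e => hyw (Subtype.ext (congrArg Subtype.val e :))
  have hzZ : (zC : Ω) ∈ Z := ⟨_, commutatorElement_mem_commutator y w, rfl⟩
  have hZgen : ∀ c : C, (c : Ω) ∈ Z → ∃ k : ℤ, c = zC ^ k := by
    rintro c ⟨v, hv, hvc⟩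
    obtain ⟨k, hk⟩ := (hG.zpowers_eq (commutatorElement_mem_commutator y w) hyw).ge hv
    refine ⟨k, Subtype.ext ?_⟩
    rw [SubgroupClass.coe_zpow, ← hvc]
    show (v : Ω) = ((⁅y, w⁆ : ↥P) : Ω) ^ k
    rw [← hk, SubgroupClass.coe_zpow]
  have hτd : ∀ a : C, ∃ k : ℤ, τ₀ a = a * zC ^ k := by
    rintro ⟨_, v, hv, rfl⟩
    have h1 : ((v⁻¹ * (y * v * y⁻¹) : ↥P)) ∈ commutator ↥P := by
      rw [show v⁻¹ * (y * v * y⁻¹) = ⁅v⁻¹, y⁆ by rw [commutatorElement_def]; group]
      exact commutatorElement_mem_commutator _ _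
    obtain ⟨k, hk⟩ := (hG.zpowers_eq (commutatorElement_mem_commutator y w) hyw).ge h1
    refine ⟨k, Subtype.ext ?_⟩
    have h2 : v * ⁅y, w⁆ ^ k = y * v * y⁻¹ := by rw [show ⁅y, w⁆ ^ k = _ from hk]; group
    have h3 := congrArg (Subtype.val : ↥P → Ω) h2
    simp only [Subgroup.coe_mul, SubgroupClass.coe_zpow, InvMemClass.coe_inv] at h3
    show (y : Ω) * v * (y : Ω)⁻¹ = _
    rw [Subgroup.coe_mul, SubgroupClass.coe_zpow]
    exact h3.symm
  have hτz : τ₀ zC = zC := by
    refine Subtype.ext ?_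
    show (y : Ω) * (⁅y, w⁆ : ↥P) * (y : Ω)⁻¹ = (⁅y, w⁆ : ↥P)
    have hc : y * ⁅y, w⁆ * y⁻¹ = ⁅y, w⁆ := by
      rw [Subgroup.mem_center_iff.mp (hG.le_center (commutatorElement_mem_commutator y w)) y,
        mul_inv_cancel_right]
    exact congrArg (Subtype.val : ↥P → Ω) hc
  have hτw : τ₀ wC = zC * wC := by
    refine Subtype.ext ?_
    show (y : Ω) * w * (y : Ω)⁻¹ = (⁅y, w⁆ : ↥P) * (w : Ω)
    simp [commutatorElement_def]
  -- `α` moves `zC` out of `Z` and pulls it back to a multiple of `w`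
  obtain ⟨j, hj⟩ := hZgen (α wC) (hαw wC.2)
  have hw1 : wC ≠ 1 := fun e => hwZ (by
    rw [show w = 1 from Subtype.ext (congrArg Subtype.val e :)]; exact one_mem _)
  have hjp : ¬ (p : ℤ) ∣ j := fun hd => hw1 <| α.injective (by
    rw [map_one, hj]
    obtain ⟨i, rfl⟩ := hd
    rw [zpow_mul, zpow_natCast, hCexp, one_zpow])
  obtain ⟨m, m', hmm⟩ : IsCoprime j (p : ℤ) :=
    ((Nat.prime_iff_prime_int.1 hp').coprime_iff_not_dvd.2 hjp).symm
  have hαz : α⁻¹ zC = wC ^ m := α.injective (by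
    rw [MulAut.apply_inv_self, map_zpow, hj, ← zpow_mul, show j * m = 1 - (p : ℤ) * m' by linarith,
      zpow_sub, zpow_one, zpow_mul, zpow_natCast, hCexp, one_zpow, inv_one, mul_one])
  have hm : ¬ (p : ℤ) ∣ m := fun hd => hp'.ne_one (Int.natCast_inj.mp (show (p : ℤ) = (1 : ℕ) by
    have h1 : (p : ℤ) ∣ 1 := by
      rw [← hmm]
      exact dvd_add (dvd_mul_of_dvd_left hd _) (dvd_mul_left _ _)
    exact Int.eq_one_of_dvd_one (Int.natCast_nonneg p) h1))
  set c := α zC with hcd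
  have hcZ : (c : Ω) ∉ Z := by
    intro hcZ
    obtain ⟨i, hi⟩ := hZgen c hcZ
    have h1 : α (wC ^ (i * m)) = c := by
      rw [map_zpow, hj, hi, ← zpow_mul, show j * (i * m) = i - (p : ℤ) * (i * m') by
        linear_combination i * hmm, zpow_sub, zpow_mul, zpow_natCast, hCexp, one_zpow, inv_one, mul_one]
    have h2 := α.injective h1
    have h3 : w ^ (i * m) = ⁅y, w⁆ := Subtype.ext (by
      have := congrArg Subtype.val h2
      rw [SubgroupClass.coe_zpow] at this
      rw [SubgroupClass.coe_zpow]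
      exact this)
    refine hyw (h3 ▸ ?_)
    have h4 : w ^ (i * m) ∈ commutator ↥P := h3 ▸ commutatorElement_mem_commutator y w
    by_contra hne
    obtain ⟨q, q', hq⟩ : IsCoprime (i * m) (p : ℤ) :=
      ((Nat.prime_iff_prime_int.1 hp').coprime_iff_not_dvd.2 fun hd => hne (by
        obtain ⟨r, hr⟩ := hd
        rw [hr, zpow_mul, zpow_natCast, hexp w hwC₀, one_zpow])).symm
    apply hwZ
    have h5 := Subgroup.zpow_mem _ h4 q
    rwa [← zpow_mul, show i * m * q = 1 - (p : ℤ) * q' by linarith, zpow_sub, zpow_one, zpow_mul,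
      zpow_natCast, hexp w hwC₀, one_zpow, inv_one, mul_one] at h5
  set σ := α * τ₀ * α⁻¹ with hσ
  have hσF : σ ∈ F.autGroup C := mul_mem (mul_mem hα hτ₀F) (inv_mem hα)
  have hσd : ∀ a : C, ∃ k : ℤ, σ a = a * c ^ k := fun a => by
    obtain ⟨k, hk⟩ := hτd (α⁻¹ a)
    exact ⟨k, by rw [hσ, MulAut.mul_apply, MulAut.mul_apply, hk, map_mul, map_zpow,
      MulAut.apply_inv_self]⟩
  have hσc : σ c = c := by
    rw [hσ, MulAut.mul_apply, MulAut.mul_apply, hcd, MulAut.inv_apply_self, hτz]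
  have hσz : σ zC = zC * c ^ m := by
    rw [hσ, MulAut.mul_apply, MulAut.mul_apply, hαz, map_zpow, hτw,
      (show Commute zC wC from hCcomm _ _).mul_zpow, map_mul, map_zpow, ← hαz, MulAut.apply_inv_self,
      hcd]
    exact hCcomm _ _
  obtain ⟨n, hn⟩ := hτd c
  have hn' : ¬ (p : ℤ) ∣ n := by
    intro hd
    have hτc : τ₀ c = c := by
      obtain ⟨i, rfl⟩ := hd
      rw [hn, zpow_mul, zpow_natCast, hCexp, one_zpow, mul_one]
    -- `⟨τ₀, σ⟩` is then a `p`-group
    set L := Subgroup.zpowers zC ⊔ Subgroup.zpowers c with hL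
    let K : Subgroup (MulAut C) :=
      { carrier := {x | x ∈ F.autGroup C ∧ x c = c ∧ (∃ k : ℤ, x zC = zC * c ^ k) ∧
          ∀ a : C, a⁻¹ * x a ∈ L}
        one_mem' := ⟨one_mem _, rfl, ⟨0, by simp⟩, fun a => by simp⟩
        mul_mem' := by
          rintro x x' ⟨hxF, hxc, ⟨k, hk⟩, hxL⟩ ⟨hx'F, hx'c, ⟨k', hk'⟩, hx'L⟩
          refine ⟨mul_mem hxF hx'F, by rw [MulAut.mul_apply, hx'c, hxc],
            ⟨k + k', by rw [MulAut.mul_apply, hk', map_mul, map_zpow, hxc, hk, zpow_add, mul_assoc]⟩,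
            fun a => ?_⟩
          have := L.mul_mem (hx'L a) (hxL (x' a))
          rwa [mul_assoc, mul_inv_cancel_left] at this
        inv_mem' := by
          rintro x ⟨hxF, hxc, ⟨k, hk⟩, hxL⟩
          have hc' : x⁻¹ c = c := x.injective (by rw [MulAut.apply_inv_self, hxc])
          refine ⟨inv_mem hxF, hc', ⟨-k, x.injective ?_⟩, fun a => ?_⟩
          · rw [MulAut.apply_inv_self, map_mul, map_zpow, hxc, hk, zpow_neg, mul_inv_cancel_right]
          · have := L.inv_mem (hxL (x⁻¹ a))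
            simpa using this }
    have hLc : ∀ x ∈ K, ∀ a ∈ L, ∃ k : ℤ, x a = a * c ^ k := by
      rintro x ⟨-, hxc, ⟨k, hk⟩, -⟩ a ha
      rw [hL] at ha
      haveI : (Subgroup.zpowers zC).Normal := ⟨fun b hb v => by
        rwa [hCcomm v b, mul_inv_cancel_right]⟩
      obtain ⟨_, ⟨r, rfl⟩, _, ⟨s, rfl⟩, rfl⟩ := Subgroup.mem_sup_of_normal_left.mp ha
      refine ⟨k * r, ?_⟩
      show x (zC ^ r * c ^ s) = zC ^ r * c ^ s * c ^ (k * r)
      rw [map_mul, map_zpow, map_zpow, hxc, hk, (show Commute zC (c ^ k) from hCcomm _ _).mul_zpow,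
        ← zpow_mul, mul_assoc, mul_assoc, ← zpow_add, ← zpow_add, add_comm]
    have hKp : IsPGroup p K := fun x => ⟨2, Subtype.ext (by
      rw [pow_two]
      exact isPElement_of_stabilizer hCexp x.2.2.1 (hLc x x.2) x.2.2.2.2)⟩
    have hτK : τ₀ ∈ K := ⟨hτ₀F, hτc, ⟨0, by rw [hτz]; simp⟩, fun a => by
      obtain ⟨k, hk⟩ := hτd a
      rw [hk, inv_mul_cancel_left]
      exact Subgroup.mem_sup_left (Subgroup.zpow_mem _ (Subgroup.mem_zpowers _) _)⟩
    have hσK : σ ∈ K := ⟨hσF, hσc, ⟨m, hσz⟩, fun a => by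
      obtain ⟨k, hk⟩ := hσd a
      rw [hk, inv_mul_cancel_left]
      exact Subgroup.mem_sup_right (Subgroup.zpow_mem _ (Subgroup.mem_zpowers _) _)⟩
    obtain ⟨-, R, hR⟩ := (centralized_automized_of_fullyNormalized hS hF hCn).2
    obtain ⟨R', hR'⟩ := (hKp.comap_of_injective (F.autGroup C).subtype
      Subtype.val_injective).exists_le_sylow
    obtain ⟨g, hg⟩ := MulAction.exists_smul_eq (F.autGroup C) R' R
    have hconj : ∀ x ∈ K, (g : MulAut C) * x * (g : MulAut C)⁻¹ ∈ autInducedBy S C := by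
      intro x hx
      have h1 : g * ⟨x, hx.1⟩ * g⁻¹ ∈ (R : Subgroup (F.autGroup C)) := by
        rw [← hg, Sylow.coe_subgroup_smul]
        exact ⟨_, hR' hx, rfl⟩
      rw [hR, Subgroup.mem_subgroupOf] at h1
      exact h1
    have h1 := hstep _ g.2 (hconj _ hτK) zC hzZ
    have h2 := hstep _ (mul_mem g.2 hα) (by
      have := hconj _ hσK
      rw [hσ] at this
      rw [mul_inv_rev]
      simpa only [mul_assoc] using this) zC hzZ
    rw [MulAut.mul_apply, ← hcd] at h2
    obtain ⟨r, hr⟩ := hZgen _ h1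
    obtain ⟨s, hs⟩ := hZgen _ h2
    obtain ⟨t, t', ht⟩ : IsCoprime r (p : ℤ) :=
      ((Nat.prime_iff_prime_int.1 hp').coprime_iff_not_dvd.2 fun hd => hzC1 <|
        (g : MulAut C).injective (by
          obtain ⟨i, rfl⟩ := hd
          rw [map_one, hr, zpow_mul, zpow_natCast, hCexp, one_zpow])).symm
    apply hcZ
    have hc : c = zC ^ (s * t) := (g : MulAut C).injective (by
      rw [map_zpow, hr, ← zpow_mul, show r * (s * t) = s - (p : ℤ) * (s * t') by
        linear_combination s * ht, zpow_sub, zpow_mul, zpow_natCast, hCexp, one_zpow, inv_one,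
        mul_one, hs])
    rw [hc, SubgroupClass.coe_zpow]
    exact Subgroup.zpow_mem _ hzZ _
  -- normalise the two transvections
  obtain ⟨a, a', ha⟩ : IsCoprime n (p : ℤ) :=
    ((Nat.prime_iff_prime_int.1 hp').coprime_iff_not_dvd.2 hn').symm
  obtain ⟨b, b', hb⟩ : IsCoprime m (p : ℤ) :=
    ((Nat.prime_iff_prime_int.1 hp').coprime_iff_not_dvd.2 hm).symm
  have hpow : ∀ (x : MulAut C) (v d : C) (k : ℤ), x v = v * d → x d = d → (x ^ k) v = v * d ^ k := by
    intro x v d k hv hd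
    have hnat : ∀ i : ℕ, (x ^ i) v = v * d ^ i := CfsgLib.PGroups.mulAut_iterate_eq x hv hd
    obtain ⟨i, rfl | rfl⟩ := Int.eq_nat_or_neg k
    · rw [zpow_natCast, zpow_natCast, hnat]
    · have hdi : ∀ i : ℕ, (x ^ i) d = d := fun i => by
        induction i with
        | zero => rfl
        | succ i ih => rw [pow_succ, MulAut.mul_apply, hd, ih]
      rw [zpow_neg, zpow_natCast, zpow_neg, zpow_natCast]
      refine (x ^ i).injective ?_
      rw [MulAut.apply_inv_self, map_mul, map_inv, map_pow, hnat, hdi, mul_inv_cancel_right]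
  set τ := τ₀ ^ a with hτdef
  set u := σ ^ (-b) with hudef
  have hfixz : ∀ (x : MulAut C) (d : C) (k : ℤ), x d = d → (x ^ k) d = d := fun x d k hd => by
    have := hpow x d 1 k (by rw [hd, mul_one]) (map_one x)
    rwa [one_zpow, mul_one] at this
  have hτ1 : τ zC = zC := hfixz _ _ _ hτz
  have hτ2 : τ c = c * zC := by
    rw [hτdef, hpow τ₀ c (zC ^ n) a hn (by rw [map_zpow, hτz]), ← zpow_mul,
      show n * a = 1 - (p : ℤ) * a' by linarith, zpow_sub, zpow_one, zpow_mul, zpow_natCast,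
      hCexp, one_zpow, inv_one, mul_one]
  have hu1 : u c = c := hfixz _ _ _ hσc
  have hu2 : u zC = zC * c⁻¹ := by
    rw [hudef, hpow σ zC (c ^ m) (-b) hσz (by rw [map_zpow, hσc]), ← zpow_mul,
      show m * -b = -1 + (p : ℤ) * b' by linarith, zpow_add, zpow_neg_one, zpow_mul, zpow_natCast,
      hCexp, one_zpow, mul_one]
  have hτd' : ∀ v : C, ∃ k : ℤ, τ v = v * zC ^ k := fun v => by
    obtain ⟨k, hk⟩ := hτd v
    exact ⟨k * a, by rw [hτdef, hpow τ₀ v _ a hk (by rw [map_zpow, hτz]), zpow_mul]⟩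
  have hud' : ∀ v : C, ∃ k : ℤ, u v = v * c ^ k := fun v => by
    obtain ⟨k, hk⟩ := hσd v
    exact ⟨k * -b, by rw [hudef, hpow σ v _ (-b) hk (by rw [map_zpow, hσc]), zpow_mul]⟩
  obtain ⟨hiz, hicomm⟩ := invert_of_pair hCcomm hτ1 hτ2 hu1 hu2 hτd' hud'
  set i := (τ * u * τ) ^ 2 with hid
  have hτF : τ ∈ F.autGroup C := Subgroup.zpow_mem _ hτ₀F _
  have hiF : i ∈ F.autGroup C :=
    pow_mem (mul_mem (mul_mem hτF (Subgroup.zpow_mem _ hσF _)) hτF) 2
  -- `τ` is conjugation by `y₁ = y ^ a`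
  set y₁ : ↥P := y ^ a with hy₁
  have hτy : ∀ x : C, ((τ x : C) : Ω) = (y₁ : Ω) * x * (y₁ : Ω)⁻¹ := by
    let f : ↥P →* MulAut C :=
      { toFun := fun g => conjAut C g (hPN _ g.2)
        map_one' := MulEquiv.ext fun x => Subtype.ext (by simp)
        map_mul' := fun g h => MulEquiv.ext fun x => Subtype.ext (by simp [mul_assoc]) }
    intro x
    have e : τ = f y₁ := by rw [hτdef, hy₁, map_zpow]; rfl
    rw [e]
    rfl
  have hy₁C : y₁ ∉ C₀ := fun h => by
    apply hy
    have h2 := Subgroup.zpow_mem _ h n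
    rw [hy₁, ← zpow_mul, show a * n = 1 - (p : ℤ) * a' by linarith, zpow_sub, zpow_one, zpow_mul,
      zpow_natCast] at h2
    have h3 : (y ^ p) ^ a' ∈ C₀ := C₀.zpow_mem (hZ₀C (hG.pow_mem y)) _
    have := C₀.mul_mem h2 h3
    rwa [inv_mul_cancel_right] at this
  have hi : C.subtype.comp i.toMonoidHom ∈ F.Hom C := (mem_autGroup_iff F hCS).mp hiF
  obtain ⟨ψ, hψ, hψx⟩ := (receptive_of_fullyNormalized hS hF hCn).2 C _ hi (range_subtype_comp_aut i)
  have hyE : (y₁ : Ω) ∈ extender S C (C.subtype.comp i.toMonoidHom) := by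
    refine mem_extender_iff.mpr ⟨hP.1 y₁.2, hPN _ y₁.2, y₁, hP.1 y₁.2, fun x hx => ?_⟩
    have e : (⟨(y₁ : Ω) * x * (y₁ : Ω)⁻¹, hx⟩ : C) = τ x := Subtype.ext (hτy x).symm
    show ((i ⟨_, hx⟩ : C) : Ω) = _
    rw [e, ← MulAut.mul_apply, hicomm, MulAut.mul_apply, hτy]
    rfl
  set v : ↥P := ⟨ψ ⟨y₁, hyE⟩, stronglyClosed_apply hP hψ _ y₁.2⟩ with hvd
  -- `v` and `y₁` induce the same on `C`
  have hvC : v * y₁⁻¹ ∈ C₀ := by
    rw [hC₀, Subgroup.mem_centralizer_singleton_iff]
    have hvact : ∀ x : C, (v : Ω) * x * (v : Ω)⁻¹ = (y₁ : Ω) * x * (y₁ : Ω)⁻¹ := by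
      intro x
      have hx' := le_extender hi (i⁻¹ x).2
      have e1 : ψ ⟨((i⁻¹ x : C) : Ω), hx'⟩ = (x : Ω) :=
        (hψx _ (i⁻¹ x).2 hx').trans (congrArg Subtype.val (i.apply_symm_apply x))
      have e2 : (y₁ : Ω) * ((i⁻¹ x : C) : Ω) * (y₁ : Ω)⁻¹ = ((τ (i⁻¹ x) : C) : Ω) := (hτy _).symm
      have e3 := congrArg ψ (Subtype.ext e2 : (⟨(y₁ : Ω), hyE⟩ * ⟨_, hx'⟩ * ⟨(y₁ : Ω), hyE⟩⁻¹ :
        ↥(extender S C (C.subtype.comp i.toMonoidHom))) = ⟨_, le_extender hi (τ (i⁻¹ x)).2⟩)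
      rw [map_mul, map_mul, map_inv, e1, hψx _ (τ (i⁻¹ x)).2] at e3
      refine e3.trans ?_
      show ((i (τ (i⁻¹ x)) : C) : Ω) = _
      rw [← MulAut.mul_apply, hicomm, MulAut.mul_apply, MulAut.apply_inv_self, hτy]
    have h1 := hvact ((τ⁻¹) wC)
    have h2 : ((τ (τ⁻¹ wC) : C) : Ω) = w := by rw [MulAut.apply_inv_self]
    rw [hτy] at h2
    rw [h2] at h1
    refine Subtype.ext ?_
    show (v : Ω) * (y₁ : Ω)⁻¹ * (w : Ω) = (w : Ω) * ((v : Ω) * (y₁ : Ω)⁻¹)
    have h4 : ((τ⁻¹ wC : C) : Ω) = (y₁ : Ω)⁻¹ * w * y₁ := by rw [← h2]; group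
    rw [h4] at h1
    calc (v : Ω) * (y₁ : Ω)⁻¹ * (w : Ω)
        = (v : Ω) * ((y₁ : Ω)⁻¹ * w * y₁) * (v : Ω)⁻¹ * ((v : Ω) * (y₁ : Ω)⁻¹) := by group
      _ = (w : Ω) * ((v : Ω) * (y₁ : Ω)⁻¹) := by rw [h1]
  -- compare `p`-th powers
  have hvp : v ^ p = y₁ ^ p := by
    have e : v = v * y₁⁻¹ * y₁ := by group
    rw [e, CfsgLib.PGroups.mul_pow_of_central_odd
      (hG.le_center (commutatorElement_mem_commutator _ _)) (hp'.odd_of_ne_two hp)
      (hG.pow_commutator (commutatorElement_mem_commutator _ _)), hexp _ hvC, one_mul]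
  have hy₁p : ((y₁ ^ p : ↥P) : Ω) ∈ Z := ⟨_, hG.pow_mem y₁, rfl⟩
  obtain ⟨r, hr⟩ := hZgen ⟨_, hZC _ hy₁p⟩ hy₁p
  have hψp : ψ ⟨((y₁ ^ p : ↥P) : Ω), le_extender hi (hZC _ hy₁p)⟩ = ((v ^ p : ↥P) : Ω) := by
    refine Eq.trans ?_ (Subgroup.coe_pow P _ _).symm
    rw [show (v : Ω) = ψ ⟨y₁, hyE⟩ from rfl, ← map_pow]
    exact congrArg ψ (Subtype.ext (by rw [Subgroup.coe_pow, Subgroup.coe_pow]))
  rw [hψx _ (hZC _ hy₁p), hvp] at hψp
  have h5 : i (zC ^ r) = zC ^ r := by
    rw [← hr]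
    exact Subtype.ext hψp
  rw [map_zpow, hiz, inv_zpow, eq_comm, eq_inv_iff_mul_eq_one] at h5
  refine hy₁C (homega y₁ ?_)
  have h6 : zC ^ r = 1 := by
    have h7 : (zC ^ r) ^ 2 = 1 := by rw [pow_two, h5]
    obtain ⟨k, hk⟩ := hp'.odd_of_ne_two hp
    have h8 := hCexp (zC ^ r)
    rw [hk, pow_succ, pow_mul, h7, one_pow, one_mul] at h8
    exact h8
  rw [h6] at hr
  exact Subtype.ext (congrArg Subtype.val hr :)

theorem orderOf_eq_four {G : Type*} [Group G] {w y : G} (hw : w ^ 2 = 1) (hy : y ^ 2 = 1)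
    (hne : ⁅w, y⁆ ≠ 1) (hsq : ⁅w, y⁆ ^ 2 = 1) : orderOf (w * y) = 4 := by
  have hwi : w⁻¹ = w := inv_eq_of_mul_eq_one_right (by rw [← pow_two, hw])
  have hyi : y⁻¹ = y := inv_eq_of_mul_eq_one_right (by rw [← pow_two, hy])
  have h2 : (w * y) ^ 2 = ⁅w, y⁆ := by
    rw [commutatorElement_def, hwi, hyi, pow_two]
    simp only [mul_assoc]
  haveI : Fact (Nat.Prime 2) := ⟨Nat.prime_two⟩
  exact orderOf_eq_prime_pow (p := 2) (n := 1) (x := w * y) (by simpa [h2] using hne)
    (by rw [show 2 ^ (1 + 1) = 2 * 2 from rfl, pow_mul, h2, hsq])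

/-- A noncentral element of order `p` with elementary abelian centralizer gives one of the excluded
shapes, as soon as some element outside that centralizer has order `p`. -/
theorem not_exists_outside {G : Type*} [Group G] [Finite G] (hG : IsGenExtraspecial p G)
    (h2 : p = 2 → ¬ ∃ (A : Type) (_ : CommGroup A), (∀ a : A, a ^ 2 = 1) ∧
      Nonempty (G ≃* DihedralGroup 4 × A))
    (hodd : p ≠ 2 → ¬ ∃ (E : Type) (_ : Group E) (A : Type) (_ : CommGroup A),
      Cfsg.IsExtraspecial p E ∧ Nat.card E = p ^ 3 ∧ Monoid.exponent E = p ∧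
        (∀ a : A, a ^ p = 1) ∧ Nonempty (G ≃* E × A))
    {w y : G}
    (hab : ∀ a ∈ Subgroup.centralizer ({w} : Set G), ∀ b ∈ Subgroup.centralizer ({w} : Set G),
      a * b = b * a)
    (hexp : ∀ a ∈ Subgroup.centralizer ({w} : Set G), a ^ p = 1)
    (hy : y ∉ Subgroup.centralizer ({w} : Set G)) (hyp : y ^ p = 1) : False := by
  have hp := (Fact.out : p.Prime)
  obtain ⟨A, hAp, hAc, hcard, hcen, hcom, hbij⟩ := hG.exists_split hab hexp hy hyp
  obtain ⟨A', _, hA', ⟨e⟩⟩ := hG.exists_iso rfl hAc hAp hbij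
  have hwC : w ∈ Subgroup.centralizer ({w} : Set G) := Subgroup.mem_centralizer_singleton_iff.mpr rfl
  have hwp := hexp w hwC
  have hne : ⁅w, y⁆ ≠ 1 := fun h => hy (Subgroup.mem_centralizer_singleton_iff.mpr
    (commutatorElement_eq_one_iff_mul_comm.mp h).symm)
  by_cases hp2 : p = 2
  · subst hp2
    have hw1 : orderOf w = 2 := orderOf_eq_prime hwp fun h => hne (by simp [h])
    have hy1 : orderOf y = 2 := orderOf_eq_prime hyp fun h => hne (by simp [h])
    obtain ⟨d⟩ := CfsgLib.Involutions.nonempty_dihedralEquiv hw1 hy1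
      (fun h => hne (by rw [h, commutatorElement_self]))
    rw [orderOf_eq_four hwp hyp hne
      (hG.pow_commutator (commutatorElement_mem_commutator w y))] at d
    exact h2 rfl ⟨A', inferInstance, hA', ⟨e.trans (MulEquiv.prodCongr d (MulEquiv.refl A'))⟩⟩
  · set E := Subgroup.closure ({w, y} : Set G) with hE
    have hEp : IsPGroup p E := hG.isPGroup.to_subgroup E
    have hexpE : ∀ x : E, x ^ p = 1 := fun x => by
      have hx : (x : G) ∈ Subgroup.closure {g : G | g ^ p = 1} :=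
        Subgroup.closure_mono (by rintro _ (rfl | rfl) <;> assumption) x.2
      exact Subtype.ext (CfsgLib.PGroups.pow_eq_one_of_mem_closure hG.le_center
        (hp.odd_of_ne_two hp2)
        (fun a b => hG.pow_commutator (commutatorElement_mem_commutator a b)) hx)
    have hfr : frattini E = commutator E :=
      le_antisymm (CfsgLib.PGroups.frattini_le_of (p := p) le_rfl fun x => by
          rw [hexpE x]; exact one_mem _)
        (CfsgLib.PGroups.commutator_le_frattini hEp)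
    have hZE : Nat.card (Subgroup.center E) = p := by
      rw [hcen, Nat.card_congr (Subgroup.subgroupOfEquivOfLe ?_).toEquiv, hG.card_commutator]
      rw [← hG.zpowers_eq (commutatorElement_mem_commutator w y) hne, Subgroup.zpowers_le,
        commutatorElement_def]
      have hwE : w ∈ E := Subgroup.subset_closure (Set.mem_insert _ _)
      have hyE : y ∈ E := Subgroup.subset_closure (Set.mem_insert_of_mem _ rfl)
      exact E.mul_mem (E.mul_mem (E.mul_mem hwE hyE) (E.inv_mem hwE)) (E.inv_mem hyE)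
    have hex : Monoid.exponent E = p := by
      haveI : Nontrivial E := by
        rw [← Finite.one_lt_card_iff_nontrivial, hcard]
        exact Nat.one_lt_pow (by norm_num) hp.one_lt
      exact (Monoid.exponent_eq_prime_iff hp).mpr fun g hg => orderOf_eq_prime (hexpE g) hg
    have hext : Cfsg.IsExtraspecial p E :=
      ⟨⟨hEp, hfr.trans (hcom.trans hcen.symm), hcom.trans hcen.symm⟩, hZE⟩
    let sh : Shrink.{0} E ≃* E := Shrink.mulEquiv
    exact hodd hp2 ⟨Shrink.{0} E, inferInstance, A', inferInstance,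
      CfsgLib.PGroups.IsExtraspecial.of_mulEquiv sh.symm hext,
      (Nat.card_congr sh.toEquiv).trans hcard, (Monoid.exponent_eq_of_mulEquiv sh).trans hex, hA',
      ⟨e.trans (MulEquiv.prodCongr sh.symm (MulEquiv.refl A'))⟩⟩

/-- A strongly closed generalized extraspecial subgroup outside the exceptional shapes is normal. -/
theorem isNormal_of_genExtraspecial (hS : IsPGroup p S) {F : FusionSystem S}
    (hF : F.IsSaturated p) {P : Subgroup Ω} (hP : F.StronglyClosed P)
    (hge : frattini ↥P = commutator ↥P) (hcard : Nat.card ↥(commutator ↥P) = p)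
    (h2 : p = 2 → ¬ ∃ (A : Type) (_ : CommGroup A), (∀ a : A, a ^ 2 = 1) ∧
      Nonempty (↥P ≃* DihedralGroup 4 × A))
    (hodd : p ≠ 2 → ¬ ∃ (E : Type) (_ : Group E) (A : Type) (_ : CommGroup A),
      Cfsg.IsExtraspecial p E ∧ Nat.card E = p ^ 3 ∧ Monoid.exponent E = p ∧
        (∀ a : A, a ^ p = 1) ∧ Nonempty (↥P ≃* E × A)) :
    F.IsNormal P := by
  have hp := (Fact.out : p.Prime)
  haveI := finite_of_le hP.1
  have hG : IsGenExtraspecial p ↥P := ⟨isPGroup_of_le hS hP.1, hge, hcard⟩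
  set Z := (commutator ↥P).map P.subtype with hZd
  have hZP : Z ≤ P := Subgroup.map_subtype_le _
  have hZS : Z ≤ S := hZP.trans hP.1
  haveI := finite_of_le hZS
  have hZcard : Nat.card Z = p :=
    (Subgroup.card_map_of_injective P.subtype_injective).trans hG.card_commutator
  have hSZ : S ≤ Subgroup.normalizer (Z : Set Ω) := by
    have hmap : ∀ g ∈ S, ∀ x ∈ Z, g * x * g⁻¹ ∈ Z := by
      rintro g hg _ ⟨v, hv, rfl⟩
      let c := conjAut P g (stronglyClosed_le_normalizer hP hg)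
      exact ⟨c v, ((Subgroup.characteristic_iff_map_eq.mp
        (inferInstance : (commutator ↥P).Characteristic)) c).le ⟨v, hv, rfl⟩, rfl⟩
    intro g hg
    refine Subgroup.mem_normalizer_iff.mpr fun x => ⟨hmap g hg x, fun h => ?_⟩
    simpa [mul_assoc] using hmap g⁻¹ (S.inv_mem hg) _ h
  have hZn : F.IsFullyNormalized Z := by
    refine ⟨hZS, fun R _ => ?_⟩
    rw [show normalizerIn S Z = S from le_antisymm (normalizerIn_le S Z) (le_inf le_rfl hSZ)]
    exact Subgroup.card_le_of_le (normalizerIn_le S R)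
  have hweak : F.WeaklyClosed Z := by
    refine ⟨hZS, fun φ hφ => ?_⟩
    set W := φ.range with hWd
    have hWP : W ≤ P := by
      rintro _ ⟨x, rfl⟩
      exact stronglyClosed_apply hP hφ x (hZP x.2)
    haveI := finite_of_le (hWP.trans hP.1)
    have hWcard : Nat.card W = p := (card_range_eq (F.injective_of_mem hφ)).trans hZcard
    by_contra hne
    obtain ⟨x, hxW, hxZ⟩ : ∃ x ∈ W, x ∉ Z := by
      by_contra h
      push Not at h
      exact hne (Subgroup.eq_of_le_of_card_ge h (by rw [hWcard, hZcard]))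
    set w : ↥P := ⟨x, hWP hxW⟩ with hwd
    have hwG : w ∉ commutator ↥P := fun h => hxZ ⟨w, h, rfl⟩
    have hWz : W = Subgroup.zpowers x := by
      have hx : Subgroup.zpowers x ≤ W := Subgroup.zpowers_le.mpr hxW
      refine (Subgroup.eq_of_le_of_card_ge hx ?_).symm
      obtain ⟨k, hk, hk'⟩ := (Nat.dvd_prime_pow hp).mp (show Nat.card (Subgroup.zpowers x) ∣ p ^ 1 by
        rw [pow_one, ← hWcard]; exact Subgroup.card_dvd_of_le hx)
      rcases k with _ | k
      · rw [pow_zero, Nat.card_zpowers, orderOf_eq_one_iff] at hk'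
        exact absurd (hk' ▸ one_mem Z) hxZ
      · rw [hWcard, hk', show k = 0 by omega, pow_one]
    obtain ⟨ψ, hψ, -, hψmap⟩ := exists_hom_normalizerIn_of_fullyNormalized hS hF hZn
      (CfsgLib.Alperin.IsConj.symm (⟨φ, hφ, hWd.symm⟩ : F.IsConj Z W))
    set C₀ := Subgroup.centralizer ({w} : Set ↥P) with hC₀
    have hwC : w ∈ C₀ := Subgroup.mem_centralizer_singleton_iff.mpr rfl
    have hCN : ∀ v ∈ C₀, (v : Ω) ∈ normalizerIn S W := by
      intro v hv
      have hc : (v : Ω) * x = x * v :=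
        congrArg Subtype.val (Subgroup.mem_centralizer_singleton_iff.mp hv : v * w = w * v)
      refine ⟨hP.1 v.2, Subgroup.centralizer_le_normalizer _ (?_ : (v : Ω) ∈
        Subgroup.centralizer (W : Set Ω))⟩
      refine Subgroup.mem_centralizer_iff.mpr fun t ht => ?_
      rw [hWz] at ht
      obtain ⟨k, rfl⟩ := ht
      exact ((show Commute (v : Ω) x from hc).zpow_right k).eq.symm
    let C := C₀.map P.subtype
    have hCle : C ≤ normalizerIn S W := by
      rintro _ ⟨v, hv, rfl⟩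
      exact hCN v hv
    set χ := ψ.comp (Subgroup.inclusion hCle) with hχd
    have hχ : χ ∈ F.Hom C := restrict_mem hψ hCle
    let g : C₀ →* ↥P :=
      (χ.comp ((P.subtype.subgroupMap C₀))).codRestrict P fun v =>
        stronglyClosed_apply hP hχ _ v.1.2
    have hginj : Function.Injective g := fun a b h => by
      have h1 := F.injective_of_mem hχ (congrArg Subtype.val h :)
      exact Subtype.ext (Subtype.ext (congrArg Subtype.val h1 :))
    have hgw : g ⟨w, hwC⟩ ∈ commutator ↥P := by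
      obtain ⟨v, hv, hve⟩ := (show ψ ⟨x, hCle ⟨w, hwC, rfl⟩⟩ ∈ Z from
        hψmap.le ⟨_, Subgroup.mem_subgroupOf.mpr hxW, rfl⟩)
      exact (Subtype.ext hve : v = g ⟨w, hwC⟩) ▸ hv
    have hgw1 : g ⟨w, hwC⟩ ≠ 1 := fun h => hwG (by
      rw [show w = 1 from congrArg Subtype.val (hginj (h.trans (map_one g).symm))]
      exact one_mem _)
    -- a central element sent into the derived subgroup is trivial
    have key : ∀ c : C₀, (c : ↥P) ∈ commutator ↥P → g c ∈ commutator ↥P → c = 1 := by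
      intro c hc hgc
      obtain ⟨k, hk⟩ := (hG.zpowers_eq hgw hgw1).ge hgc
      have h1 : (⟨w, hwC⟩ : C₀) ^ k = c := hginj (by rw [map_zpow]; exact hk)
      by_contra hc1
      apply hwG
      have hc1' : (c : ↥P) ≠ 1 := fun h => hc1 (Subtype.ext h)
      have hwk : (c : ↥P) = w ^ k := by rw [← h1, SubgroupClass.coe_zpow]
      have hwp : w ^ p = 1 := by
        refine Subtype.ext ?_
        have := congrArg Subtype.val (pow_card_eq_one' (x := (⟨x, hxW⟩ : W)))
        rw [hWcard] at this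
        rw [Subgroup.coe_pow, Subgroup.coe_one]
        simpa using this
      obtain ⟨a, a', ha⟩ : IsCoprime k (p : ℤ) :=
        ((Nat.prime_iff_prime_int.1 hp).coprime_iff_not_dvd.2 fun hd => hc1' (by
          obtain ⟨i, rfl⟩ := hd
          rw [hwk, zpow_mul, zpow_natCast, hwp, one_zpow])).symm
      have h2 := Subgroup.zpow_mem _ (hwk ▸ hc) a
      rwa [← zpow_mul, show k * a = 1 - (p : ℤ) * a' by linarith, zpow_sub, zpow_one, zpow_mul,
        zpow_natCast, hwp, one_zpow, inv_one, mul_one] at h2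
    have hwcen : w ∉ Subgroup.center ↥P := by
      intro hwc
      have htop : ∀ v : ↥P, v ∈ C₀ := fun v =>
        Subgroup.mem_centralizer_singleton_iff.mpr (Subgroup.mem_center_iff.mp hwc v)
      let e : ↥P →* C₀ := (MonoidHom.id ↥P).codRestrict C₀ htop
      have hinj : Function.Injective (g.comp e) := hginj.comp fun a b h => congrArg Subtype.val h
      let eq := MulEquiv.ofBijective (g.comp e) (Finite.injective_iff_bijective.mp hinj)
      obtain ⟨v, hv, hve⟩ := ((Subgroup.characteristic_iff_map_eq.mp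
        (inferInstance : (commutator ↥P).Characteristic)) eq).ge hgw
      exact hwG ((eq.injective (hve.trans rfl) : v = w) ▸ hv)
    obtain ⟨y, hy⟩ : ∃ y : ↥P, y ∉ C₀ := by
      by_contra h
      push Not at h
      exact hwcen (Subgroup.mem_center_iff.mpr fun v =>
        Subgroup.mem_centralizer_singleton_iff.mp (h v))
    have hab : ∀ a ∈ C₀, ∀ b ∈ C₀, a * b = b * a := by
      intro a ha b hb
      refine commutatorElement_eq_one_iff_mul_comm.mp ?_
      have := key ⁅(⟨a, ha⟩ : C₀), ⟨b, hb⟩⁆ (commutatorElement_mem_commutator a b)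
        (by rw [map_commutatorElement]; exact commutatorElement_mem_commutator _ _)
      exact congrArg Subtype.val this
    have hexp : ∀ a ∈ C₀, a ^ p = 1 := fun a ha => by
      have := key ((⟨a, ha⟩ : C₀) ^ p) (hG.pow_mem a) (by rw [map_pow]; exact hG.pow_mem _)
      exact congrArg Subtype.val this
    have hout : ∀ v : ↥P, v ^ p = 1 → v ∈ C₀ := fun v hv => by
      by_contra hvC
      exact not_exists_outside hG h2 hodd hab hexp hvC hv
    by_cases hp2 : p = 2
    · subst hp2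
      refine hy ((Subgroup.mul_mem_cancel_right C₀ hwC).mp (hout (y * w) ?_))
      have hne : ⁅w, y⁆ ≠ 1 := fun h => hy (Subgroup.mem_centralizer_singleton_iff.mpr
        (commutatorElement_eq_one_iff_mul_comm.mp h).symm)
      rw [CfsgLib.PGroups.mul_pow_of_central (hG.le_center (commutatorElement_mem_commutator _ _)),
        hexp w hwC, mul_one, Nat.choose_self, pow_one]
      obtain ⟨k, hk⟩ := (hG.zpowers_eq (commutatorElement_mem_commutator w y) hne).ge (hG.pow_mem y)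
      have hk : ⁅w, y⁆ ^ k = y ^ 2 := hk
      have hc2 := hG.pow_commutator (commutatorElement_mem_commutator w y)
      have hy2 : y ^ 2 ≠ 1 := fun h => hy (hout y h)
      obtain ⟨i, rfl | rfl⟩ := Int.even_or_odd' k
      · exfalso
        apply hy2
        rw [← hk, zpow_mul, zpow_ofNat, hc2, one_zpow]
      · rw [← hk, zpow_add, zpow_mul, zpow_ofNat, hc2, one_zpow, one_mul, zpow_one, ← pow_two, hc2]
    · haveI := finite_of_le (show C ≤ S from hCle.trans (normalizerIn_le S W))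
      obtain ⟨α, hα, hαx⟩ := exists_aut_of_hom' F hχ fun c => by
        have h1 : χ c ∈ P := stronglyClosed_apply hP hχ c (Subgroup.map_subtype_le _ c.2)
        refine ⟨⟨χ c, h1⟩, hout _ (Subtype.ext ?_), rfl⟩
        rw [Subgroup.coe_pow, Subgroup.coe_one]
        show χ c ^ p = 1
        obtain ⟨v, hv, hvc⟩ := c.2
        rw [← map_pow, show c ^ p = 1 from Subtype.ext (by
          rw [Subgroup.coe_pow, Subgroup.coe_one, ← hvc, ← map_pow, hexp v hv, map_one]), map_one]
      refine false_of_omega_centralizer hS hF hp2 hP hG hC₀ hab hexp hy hout hwG hα fun h => ?_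
      rw [hαx]
      exact hψmap.le ⟨_, Subgroup.mem_subgroupOf.mpr hxW, rfl⟩
  refine isNormal_of_weaklyClosed_series hS hF hP (n := 2) ![⊥, Z, P] rfl rfl ?_ ?_ ?_
  · refine Fin.monotone_iff_le_succ.mpr fun i => ?_
    fin_cases i
    · exact bot_le
    · exact hZP
  · intro i
    fin_cases i
    · refine (Subgroup.commutator_eq_bot_iff_le_centralizer.mpr ?_).le
      rintro _ ⟨v, hv, rfl⟩
      exact Subgroup.mem_centralizer_iff.mpr fun t ht =>
        congrArg Subtype.val (Subgroup.mem_center_iff.mp (hG.le_center hv) ⟨t, ht⟩)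
    · refine Subgroup.commutator_le.mpr fun a ha b hb => ?_
      exact ⟨_, commutatorElement_mem_commutator ⟨a, ha⟩ ⟨b, hb⟩, rfl⟩
  · intro i
    fin_cases i
    · refine ⟨bot_le, fun φ hφ => le_bot_iff.mp ?_⟩
      rintro _ ⟨x, rfl⟩
      rw [show x = 1 from Subtype.ext (Subgroup.mem_bot.mp x.2), map_one]
      exact one_mem _
    · exact hweak

end CfsgLib.FusionModels
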